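import Mathlib

/-!
Realisation of a simple group as a permutation group on the cosets of a subgroup (owner: helper66).
-/

set_option autoImplicit false
set_option linter.all false

namespace Cfsg.Agent.KMat

open MulAction

theorem realize {G : Type*} [Group G] (hs : IsSimpleGroup G) (H : Subgroup G) {n : ℕ} [NeZero n] (hn : H.index = n)
    (hne : H ≠ ⊤) : ∃ K : Subgroup (Equiv.Perm (Fin n)), Nonempty (G ≃* K) ∧ MulAction.IsPretransitive K (Fin n) ∧
      Nonempty (MulAction.stabilizer K (0 : Fin n) ≃* H) := by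
  have hn0 : n ≠ 0 := NeZero.ne n
  have hfin : Finite (G ⧸ H) := by
    apply Nat.finite_of_card_ne_zero
    show H.index ≠ 0
    rw [hn]
    exact hn0
  have ε0 : G ⧸ H ≃ Fin n := Finite.equivFinOfCardEq hn
  let ε : G ⧸ H ≃ Fin n := ε0.trans (Equiv.swap (ε0 (QuotientGroup.mk 1)) 0)
  have hε : ε (QuotientGroup.mk 1) = 0 := by
    show Equiv.swap (ε0 (QuotientGroup.mk 1)) 0 (ε0 (QuotientGroup.mk 1)) = 0
    exact Equiv.swap_apply_left _ _
  let ρ : G →* Equiv.Perm (Fin n) := (ε.permCongrHom).toMonoidHom.comp (MulAction.toPermHom G (G ⧸ H))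
  have hρ : ∀ (g : G) (i : Fin n), ρ g i = ε (g • ε.symm i) := fun g i => rfl
  have hinj : Function.Injective ρ := by
    haveI := hs
    rcases (inferInstance : ρ.ker.Normal).eq_bot_or_eq_top with h | h
    · exact (MonoidHom.ker_eq_bot_iff _).1 h
    · exfalso
      apply hne
      rw [eq_top_iff]
      intro g _
      have h1 : g ∈ ρ.ker := by rw [h]; exact Subgroup.mem_top g
      rw [MonoidHom.mem_ker] at h1
      have h2 := hρ g 0
      rw [h1, ← hε, Equiv.symm_apply_apply] at h2
      have h3 : (QuotientGroup.mk 1 : G ⧸ H) = g • (QuotientGroup.mk 1 : G ⧸ H) := ε.injective h2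
      have h4 : (QuotientGroup.mk 1 : G ⧸ H) = QuotientGroup.mk g := by
        rw [h3, MulAction.Quotient.smul_mk, smul_eq_mul, mul_one]
      rw [QuotientGroup.eq, inv_one, one_mul] at h4
      exact h4
  let e : G ≃* ρ.range := MonoidHom.ofInjective hinj
  have he : ∀ g, ((e g : ρ.range) : Equiv.Perm (Fin n)) = ρ g := fun g => rfl
  refine ⟨ρ.range, ⟨e⟩, ⟨fun i j => ?_⟩, ?_⟩
  · obtain ⟨g, hg⟩ := MulAction.exists_smul_eq G (ε.symm i) (ε.symm j)
    refine ⟨e g, ?_⟩
    show ((e g : ρ.range) : Equiv.Perm (Fin n)) i = j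
    rw [he, hρ, hg, Equiv.apply_symm_apply]
  · have h1 : MulAction.stabilizer ρ.range (0 : Fin n) = H.map e.toMonoidHom := by
      ext x
      obtain ⟨g, rfl⟩ := e.surjective x
      rw [MulAction.mem_stabilizer_iff]
      have h2 : (e g • (0 : Fin n)) = ε (QuotientGroup.mk g) := by
        show ((e g : ρ.range) : Equiv.Perm (Fin n)) 0 = _
        rw [he, hρ, ← hε, Equiv.symm_apply_apply, MulAction.Quotient.smul_mk, smul_eq_mul, mul_one]
      rw [h2]
      constructor
      · intro h3
        rw [← hε] at h3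
        have h4 : (QuotientGroup.mk g : G ⧸ H) = QuotientGroup.mk 1 := ε.injective h3
        rw [QuotientGroup.eq, mul_one] at h4
        exact ⟨g, by simpa using h4, rfl⟩
      · rintro ⟨g', hg', h3⟩
        have h4 : g' = g := e.injective h3
        subst h4
        have h5 : (QuotientGroup.mk g' : G ⧸ H) = QuotientGroup.mk 1 := by
          rw [QuotientGroup.eq, mul_one]
          exact inv_mem hg'
        rw [h5, hε]
    rw [h1]
    exact ⟨(H.equivMapOfInjective e.toMonoidHom e.injective).symm⟩

end Cfsg.Agent.KMat
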